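import Cfsg.Agent.Plane.Coord

/-! A finite plane all of whose elation groups are transitive is Desarguesian (`PA.desarg`). -/

set_option autoImplicit false

namespace Cfsg.Agent.Plane

open MulAction
open scoped commutatorElement

variable {P L : Type*} {I : P → L → Prop} {n : ℕ} {G : Type*} [Group G] [MulAction G P] [MulAction G L]

namespace PA
variable (h : PA G I n)
include h

theorem cm_mem {σ t : G} {Y : P} {w : L} (hσ : σ ∈ Ce I Y) (Yw : I Y w) (ht : t ∈ h.T w) :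
    ⁅σ, t⁆ ∈ Ce I Y ⊓ Ax I w := by
  refine Subgroup.mem_inf.2 ⟨?_, mul_mem (by simpa [hσ w Yw] using h.ax_conj ht.1 σ) (inv_mem ht.1)⟩
  have := mul_mem hσ (by simpa [ht.1 Y Yw] using h.ce_conj (inv_mem hσ) t : t * σ⁻¹ * t⁻¹ ∈ Ce I Y)
  simpa [commutatorElement_def, mul_assoc] using this

theorem gT {t : G} {Y : P} {w : L} (Yw : I Y w) (ht : t ∈ Ce I Y ⊓ Ax I w) : t ∈ h.T w := ⟨ht.2, Y, Yw, ht.1⟩

theorem cm_fix {σ t : G} {Y : P} {w l : L} (hσ : σ ∈ Ce I Y ⊓ Ax I l) (Yw : I Y w) (Yl : I Y l) (e : l ≠ w)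
    (ht : t ∈ Ce I Y ⊓ Ax I w) : σ * t = t * σ := by
  refine commutatorElement_eq_one_iff_mul_comm.1 (h.two_ax ?_ (h.cm_mem hσ.1 Yw (h.gT Yw ht)).2 e)
  have := mul_mem hσ.2 (by simpa [ht.1 l Yl] using h.ax_conj (inv_mem hσ.2) t : t * σ⁻¹ * t⁻¹ ∈ Ax I l)
  simpa [commutatorElement_def, mul_assoc] using this

theorem mv {t : G} {p M : P} {w l : L} (ht : t ∈ h.T w) (pw : ¬ I p w) (pl : I p l) (Ml : I M l) (Mw : I M w) :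
    I (t • p) l ↔ t ∈ Ce I M := by
  refine ⟨fun e => ?_, fun e => h.smL pl (e l Ml)⟩
  by_cases e1 : t • p = p
  · rw [h.T_semi ht pw e1]; exact one_mem _
  obtain ⟨-, d, d1, d2⟩ := ht
  rwa [h.uqP (fun e : l = w => pw (e ▸ pl)) Ml Mw (h.ce_col d2 e1 pl e) d1]

variable (hT : ∀ a, n ^ 2 ≤ Nat.card (h.T a))
include hT

theorem gam {c x y : P} {a l : L} (ca : I c a) (cl : I c l) (xl : I x l) (yl : I y l) (xa : ¬ I x a) (ya : ¬ I y a) :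
    ∃ t : G, t ∈ Ce I c ⊓ Ax I a ∧ t • x = y := by
  obtain ⟨t, t1, rfl⟩ := h.T_trans (hT a) xa ya
  exact ⟨t, ⟨(h.mv t1 xa xl cl ca).1 yl, t1.1⟩, rfl⟩

theorem gam_ne {c : P} {a : L} (ca : I c a) : ∃ t : G, t ∈ Ce I c ⊓ Ax I a ∧ t ≠ 1 := by
  obtain ⟨l, l1, l2, -⟩ := h.ex3L c a a
  obtain ⟨x, x1, x2, -⟩ := h.ex3 l c c
  obtain ⟨y, y1, y2, y3⟩ := h.ex3 l c x
  obtain ⟨t, t1, t2⟩ := h.gam hT ca l1 x1 y1 (fun e => x2 (h.uqP l2 x1 e l1 ca)) fun e => y2 (h.uqP l2 y1 e l1 ca)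
  exact ⟨t, t1, fun e => y3 (by rw [← t2, e, one_smul])⟩

theorem Tc {a : L} {g k : G} (hg : g ∈ h.T a) (hk : k ∈ h.T a) : g * k = k * g :=
  h.T_comm (fun c _ => by
    obtain ⟨d, d1, d2, -⟩ := h.ex3 a c c
    obtain ⟨t, t1, t2⟩ := h.gam_ne hT d1
    exact ⟨d, t, d1, d2, t2, t1.2, t1.1⟩) hg hk

theorem cm_mul {σ t u : G} {Y : P} {w : L} (hσ : σ ∈ Ce I Y) (Yw : I Y w) (ht : t ∈ h.T w) (hu : u ∈ h.T w) :
    ⁅σ, t * u⁆ = ⁅σ, t⁆ * ⁅σ, u⁆ := by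
  have := h.Tc hT (inv_mem ht) (h.gT Yw (h.cm_mem hσ Yw hu))
  rw [commutatorElement_def σ t, mul_assoc _ t⁻¹, this]
  simp only [commutatorElement_def]; group

omit hT in
theorem mul_cm {σ τ t : G} {Y : P} {w l : L} (hσ : σ ∈ Ce I Y ⊓ Ax I l) (hτ : τ ∈ Ce I Y) (Yw : I Y w) (Yl : I Y l)
    (e : l ≠ w) (ht : t ∈ h.T w) : ⁅σ * τ, t⁆ = ⁅τ, t⁆ * ⁅σ, t⁆ := by
  have := h.cm_fix hσ Yw Yl e (h.cm_mem hτ Yw ht)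
  calc _ = (σ * ⁅τ, t⁆) * (t * σ⁻¹ * t⁻¹) := by simp only [commutatorElement_def]; group
    _ = _ := by rw [this]; simp only [commutatorElement_def]; group

theorem cancel {a b c d : G} {X Y : P} {w : L} (Xw : I X w) (Yw : I Y w) (XY : X ≠ Y) (ha : a ∈ Ce I X ⊓ Ax I w)
    (hb : b ∈ Ce I Y ⊓ Ax I w) (hc : c ∈ Ce I X ⊓ Ax I w) (hd : d ∈ Ce I Y ⊓ Ax I w) (e : a * b = d * c) :
    a = c ∧ b = d := by
  rw [h.Tc hT (h.gT Yw hd) (h.gT Xw hc)] at e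
  have e2 : c⁻¹ * a = d * b⁻¹ := by rw [inv_mul_eq_iff_eq_mul, ← mul_assoc, ← e]; group
  have e3 := h.two_ce (mul_mem (inv_mem hc.1) ha.1) (e2 ▸ mul_mem hd.1 (inv_mem hb.1)) XY
  exact ⟨(inv_mul_eq_one.1 e3).symm, (mul_inv_eq_one.1 (e2 ▸ e3)).symm⟩

theorem pair {σ τ t : G} {X Y : P} {w : L} (Xw : I X w) (Yw : I Y w) (XY : X ≠ Y) (hσ : σ ∈ Ce I Y)
    (hτ : τ ∈ Ce I X) (e : σ • X = τ • Y) (ht : t ∈ Ce I X ⊓ Ax I w) : ⁅τ, ⁅σ, t⁆⁆ = t := by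
  have hu : τ⁻¹ * (σ * t * σ⁻¹) * τ⁻¹⁻¹ ∈ Ce I Y ⊓ Ax I w := Subgroup.mem_inf.2
    ⟨by simpa only [e, inv_smul_smul] using h.ce_conj (h.ce_conj ht.1 σ) τ⁻¹,
      by simpa only [hσ w Yw, inv_mem hτ w Xw] using h.ax_conj (h.ax_conj ht.2 σ) τ⁻¹⟩
  obtain ⟨h1, h2⟩ := h.cancel hT Xw Yw XY (h.cm_mem hτ Xw (h.gT Yw hu)) hu ht (h.cm_mem hσ Yw (h.gT Xw ht))
    (by simp only [commutatorElement_def]; group)
  rwa [h2] at h1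

theorem exists_pair {σ : G} {X Y : P} {w lx ly : L} (Xw : I X w) (Yw : I Y w) (XY : X ≠ Y) (Xl : I X lx)
    (Xl' : ¬ I X ly) (e : lx ≠ w) (hσ : σ ∈ Ce I Y ⊓ Ax I ly) (σ1 : σ ≠ 1) :
    ∃ τ : G, τ ∈ Ce I X ⊓ Ax I lx ∧ σ • X = τ • Y := by
  have sw := h.smL Xw (hσ.1 w Yw)
  obtain ⟨τ, t1, t2⟩ := h.gam hT Xl Xw Yw sw (fun e' => XY (h.uqP e Xl Xw e' Yw))
    fun e' => (h.fix_pt hσ.2 hσ.1 σ1 (h.uqP e e' sw Xl Xw)).elim XY Xl'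
  exact ⟨τ, t1, t2.symm⟩

theorem desarg : Desarg I := by
  have := h.finG
  obtain ⟨w⟩ := h.neL
  obtain ⟨O, Ow⟩ := h.exOff w
  obtain ⟨X, Xw, -⟩ := h.ex3 w O O
  obtain ⟨Y, Yw, YX, -⟩ := h.ex3 w X X
  have XY := YX.symm
  obtain ⟨lx, Xl, Ox⟩ := h.exL X O
  obtain ⟨ly, Yl, Oy⟩ := h.exL Y O
  have xw : lx ≠ w := fun e => Ow (e ▸ Ox)
  have yw : ly ≠ w := fun e => Ow (e ▸ Oy)
  have Xl' : ¬ I X ly := fun e => yw (h.uqL XY e Yl Xw Yw)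
  have Yl' : ¬ I Y lx := fun e => xw (h.uqL XY Xl e Xw Yw)
  obtain ⟨σ₀, s0, s1⟩ := h.gam_ne hT Yl
  obtain ⟨τ₀, t0, t1⟩ := h.exists_pair hT Xw Yw XY Xl Xl' xw s0 s1
  obtain ⟨u, u0, u1⟩ := h.gam_ne hT Xw
  have p1 : ∀ {σ τ t : G}, σ ∈ Ce I Y ⊓ Ax I ly → τ ∈ Ce I X ⊓ Ax I lx → σ • X = τ • Y → t ∈ Ce I X ⊓ Ax I w →
      ⁅τ, ⁅σ, t⁆⁆ = t := fun a b c d => h.pair hT Xw Yw XY a.1 b.1 c d
  have p2 : ∀ {σ τ t : G}, σ ∈ Ce I Y ⊓ Ax I ly → τ ∈ Ce I X ⊓ Ax I lx → σ • X = τ • Y → t ∈ Ce I Y ⊓ Ax I w →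
      ⁅σ, ⁅τ, t⁆⁆ = t := fun a b c d => h.pair hT Yw Xw YX b.1 a.1 c.symm d
  have mX : ∀ {τ t : G}, τ ∈ Ce I X ⊓ Ax I lx → t ∈ Ce I Y ⊓ Ax I w → ⁅τ, t⁆ ∈ Ce I X ⊓ Ax I w :=
    fun a b => h.cm_mem a.1 Xw (h.gT Yw b)
  have mY : ∀ {σ t : G}, σ ∈ Ce I Y ⊓ Ax I ly → t ∈ Ce I X ⊓ Ax I w → ⁅σ, t⁆ ∈ Ce I Y ⊓ Ax I w :=
    fun a b => h.cm_mem a.1 Yw (h.gT Xw b)
  letI : CommGroup (Ce I X ⊓ Ax I w : Subgroup G) :=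
    { (inferInstance : Group (Ce I X ⊓ Ax I w : Subgroup G)) with
      mul_comm := fun a b => Subtype.ext (h.Tc hT (h.gT Xw a.2) (h.gT Xw b.2)) }
  let E : (Ce I X ⊓ Ax I lx : Subgroup G) → (Ce I Y ⊓ Ax I ly : Subgroup G) →
      AddMonoid.End (Additive (Ce I X ⊓ Ax I w : Subgroup G)) := fun τ σ =>
    AddMonoidHom.mk' (fun t => Additive.ofMul ⟨⁅τ.1, ⁅σ.1, t.toMul.1⁆⁆, mX τ.2 (mY σ.2 t.toMul.2)⟩) fun a b =>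
      congrArg Additive.ofMul (Subtype.ext (by
        change ⁅τ.1, ⁅σ.1, a.toMul.1 * b.toMul.1⁆⁆ = _ * _
        rw [h.cm_mul hT σ.2.1 Yw (h.gT Xw a.toMul.2) (h.gT Xw b.toMul.2),
          h.cm_mul hT τ.2.1 Xw (h.gT Yw (mY σ.2 a.toMul.2)) (h.gT Yw (mY σ.2 b.toMul.2))]
        rfl))
  have Ev : ∀ τ σ t, (E τ σ t).toMul.1 = ⁅τ.1, ⁅σ.1, t.toMul.1⁆⁆ := fun _ _ _ => rfl
  have ext : ∀ x y : AddMonoid.End (Additive (Ce I X ⊓ Ax I w : Subgroup G)),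
      (∀ t, (x t).toMul.1 = (y t).toMul.1) → x = y := fun x y e =>
    AddMonoidHom.ext fun t => Additive.toMul.injective (Subtype.ext (e t))
  let F := (AddMonoidHom.mk' (fun σ : Additive (Ce I Y ⊓ Ax I ly : Subgroup G) => E ⟨τ₀, t0⟩ σ.toMul) fun a b =>
    ext _ _ fun t => by
      change ⁅τ₀, ⁅a.toMul.1 * b.toMul.1, t.toMul.1⁆⁆ = ⁅τ₀, ⁅a.toMul.1, t.toMul.1⁆⁆ * ⁅τ₀, ⁅b.toMul.1, t.toMul.1⁆⁆
      rw [h.mul_cm a.toMul.2 b.toMul.2.1 Yw Yl yw (h.gT Xw t.toMul.2), h.Tc hT (h.gT Yw (mY b.toMul.2 t.toMul.2))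
        (h.gT Yw (mY a.toMul.2 t.toMul.2)), h.cm_mul hT t0.1 Xw (h.gT Yw (mY a.toMul.2 t.toMul.2))
        (h.gT Yw (mY b.toMul.2 t.toMul.2))]).range
  let F' := (AddMonoidHom.mk' (fun τ : Additive (Ce I X ⊓ Ax I lx : Subgroup G) => E τ.toMul ⟨σ₀, s0⟩) fun a b =>
    ext _ _ fun t => by
      change ⁅a.toMul.1 * b.toMul.1, ⁅σ₀, t.toMul.1⁆⁆ = ⁅a.toMul.1, ⁅σ₀, t.toMul.1⁆⁆ * ⁅b.toMul.1, ⁅σ₀, t.toMul.1⁆⁆
      rw [h.mul_cm a.toMul.2 b.toMul.2.1 Xw Xl xw (h.gT Yw (mY s0 t.toMul.2)),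
        h.Tc hT (h.gT Xw (mX b.toMul.2 (mY s0 t.toMul.2))) (h.gT Xw (mX a.toMul.2 (mY s0 t.toMul.2)))]).range
  have E1 : E ⟨τ₀, t0⟩ ⟨σ₀, s0⟩ = 1 := ext _ _ fun t => p1 s0 t0 t1 t.toMul.2
  have inv : ∀ σ τ, σ.1 • X = τ.1 • Y → E ⟨τ₀, t0⟩ σ * E τ ⟨σ₀, s0⟩ = 1 ∧ E τ ⟨σ₀, s0⟩ * E ⟨τ₀, t0⟩ σ = 1 :=
    fun σ τ e => ⟨ext _ _ fun t => by
      change ⁅τ₀, ⁅σ.1, ⁅τ.1, ⁅σ₀, t.toMul.1⁆⁆⁆⁆ = t.toMul.1
      rw [p2 σ.2 τ.2 e (mY s0 t.toMul.2), p1 s0 t0 t1 t.toMul.2], ext _ _ fun t => by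
      change ⁅τ.1, ⁅σ₀, ⁅τ₀, ⁅σ.1, t.toMul.1⁆⁆⁆⁆ = t.toMul.1
      rw [p2 s0 t0 t1 (mY σ.2 t.toMul.2), p1 σ.2 τ.2 e t.toMul.2]⟩
  let u₀ : Additive (Ce I X ⊓ Ax I w : Subgroup G) := Additive.ofMul ⟨u, u0⟩
  haveI : Nontrivial (AddMonoid.End (Additive (Ce I X ⊓ Ax I w : Subgroup G))) :=
    ⟨1, 0, fun e => u1 (congrArg (fun x : AddMonoid.End (Additive (Ce I X ⊓ Ax I w : Subgroup G)) =>
      (x u₀).toMul.1) e)⟩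
  haveI : Finite (AddMonoid.End (Additive (Ce I X ⊓ Ax I w : Subgroup G))) :=
    Finite.of_injective _ (DFunLike.coe_injective (F := Additive (Ce I X ⊓ Ax I w : Subgroup G) →+
      Additive (Ce I X ⊓ Ax I w : Subgroup G)))
  obtain ⟨K, hK, hf⟩ := (hua (F := F) (F' := F') ⟨.ofMul ⟨σ₀, s0⟩, E1⟩ ⟨.ofMul ⟨τ₀, t0⟩, E1⟩ (by
    rintro _ ⟨σ, rfl⟩ e
    obtain ⟨τ, a, b⟩ := h.exists_pair hT Xw Yw XY Xl Xl' xw σ.toMul.2 fun e' => e (by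
      rw [show σ = 0 from Additive.toMul.injective (Subtype.ext e'), map_zero])
    exact ⟨_, ⟨.ofMul ⟨τ, a⟩, rfl⟩, inv σ.toMul ⟨τ, a⟩ b⟩) (by
    rintro _ ⟨τ, rfl⟩ e
    obtain ⟨σ, a, b⟩ := h.exists_pair hT Yw Xw YX Yl Yl' yw τ.toMul.2 fun e' => e (by
      rw [show τ = 0 from Additive.toMul.injective (Subtype.ext e'), map_zero])
    exact ⟨_, ⟨.ofMul ⟨σ, a⟩, rfl⟩, (inv ⟨σ, a⟩ τ.toMul b.symm).symm⟩)).exists_subring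
  letI := hf.toField
  have sm : ∀ m : K, ∃ σ, E ⟨τ₀, t0⟩ σ = m := fun m => by
    obtain ⟨σ, e⟩ : m.1 ∈ F := hK ▸ m.2
    exact ⟨σ.toMul, e⟩
  choose σ hσ using sm
  have inK : ∀ σ, E ⟨τ₀, t0⟩ σ ∈ K := fun σ => (hK.ge (⟨.ofMul σ, rfl⟩ : E ⟨τ₀, t0⟩ σ ∈ F) :)
  let α : K → G := fun x => (x.1 u₀).toMul.1
  let β : K → G := fun x => ⁅σ₀, α x⁆
  have αm : ∀ x, α x ∈ Ce I X ⊓ Ax I w := fun x => (x.1 u₀).toMul.2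
  have βm : ∀ x, β x ∈ Ce I Y ⊓ Ax I w := fun x => mY s0 (αm x)
  have αa : ∀ x y, α (x + y) = α x * α y := fun _ _ => rfl
  have βa : ∀ x y, β (x + y) = β x * β y := fun x y => h.cm_mul hT s0.1 Yw (h.gT Xw (αm x)) (h.gT Xw (αm y))
  have αi : Function.Injective α := fun x y e => by
    by_contra ne
    obtain ⟨z, hz⟩ := hf.mul_inv_cancel (sub_ne_zero.2 ne)
    have e1 : (x - y).1 u₀ = 0 := sub_eq_zero.2 (Additive.toMul.injective (Subtype.ext e))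
    have e2 : (z * (x - y)).1 u₀ = u₀ := by rw [mul_comm, hz]; rfl
    change z.1 ((x - y).1 u₀) = u₀ at e2
    rw [e1, map_zero] at e2
    exact u1 (congrArg (fun t => t.toMul.1) e2.symm)
  have βi : Function.Injective β := fun x y e => αi (by
    rw [← p1 s0 t0 t1 (αm x), ← p1 s0 t0 t1 (αm y)]; exact congrArg (fun t => ⁅τ₀, t⁆) e)
  have fm : ∀ s (m : K), E ⟨τ₀, t0⟩ s = m → ∀ x, β (m * x) * α x ∈ Ce I (s.1 • X) := fun s m e x => by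
    have e1 : β (m * x) = ⁅s.1, α x⁆ := by
      rw [← p2 s0 t0 t1 (mY s.2 (αm x))]
      exact congrArg (fun y : AddMonoid.End (Additive (Ce I X ⊓ Ax I w : Subgroup G)) =>
        ⁅σ₀, (y (x.1 u₀)).toMul.1⁆) e.symm
    rw [e1, commutatorElement_def, inv_mul_cancel_right]
    exact h.ce_conj (αm x).1 s.1
  have α1 : α 1 = u := rfl
  have ne1 : ∀ v ∈ Ce I Y ⊓ Ax I w, v * u ∉ Ce I Y := fun v hv e =>
    u1 (h.two_ce u0.1 (by have := mul_mem (inv_mem (Subgroup.mem_inf.1 hv).1) e; rwa [inv_mul_cancel_left] at this) XY)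
  have sX : ∀ M, I M w → M ≠ Y → ∃ s : (Ce I Y ⊓ Ax I ly : Subgroup G), s.1 • X = M := fun M a b =>
    let ⟨s, c, d⟩ := h.gam hT Yl Yw Xw a Xl' fun e => b (h.uqP yw e a Yl Yw); ⟨⟨s, c⟩, d⟩
  have βc : ∀ M v x, M ≠ Y → v ∈ Ce I Y ⊓ Ax I w → ∀ a, v * a ∈ Ce I M → β x * a ∈ Ce I M → v = β x :=
    fun M v x a b c d e => mul_inv_eq_one.1 (h.two_ce (by simpa [mul_assoc] using mul_mem d (inv_mem e))
      (mul_mem b.1 (inv_mem (βm x).1)) a)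
  have βs : ∀ v ∈ Ce I Y ⊓ Ax I w, ∃ x, v = β x := fun v hv => by
    obtain ⟨-, M, a, b⟩ := mul_mem (h.gT Yw hv) (h.gT Xw u0)
    have MY : M ≠ Y := fun e => ne1 v hv (e ▸ b)
    obtain ⟨s, rfl⟩ := sX M a MY
    exact ⟨_, βc _ v _ MY hv u b (fm s ⟨_, inK s⟩ rfl 1)⟩
  have αs : ∀ t ∈ Ce I X ⊓ Ax I w, ∃ x, t = α x := fun t ht => by
    obtain ⟨x, e⟩ := βs _ (mY s0 ht)
    exact ⟨x, by rw [← p1 s0 t0 t1 ht, e, p1 s0 t0 t1 (αm x)]⟩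
  have γm : ∀ x y, β y * α x ∈ h.T w := fun x y => mul_mem (h.gT Yw (βm y)) (h.gT Xw (αm x))
  have pw : ∀ x y, ¬ I ((β y * α x) • O) w := fun x y e => Ow ((h.invL (h.ax_fix (γm x y).1) O).1 e)
  have γa : ∀ x y x' y', (β y' * α x') • O = (β (y' - y) * α (x' - x)) • (β y * α x) • O := fun x y x' y' => by
    rw [← mul_smul, mul_assoc, ← mul_assoc (α _), h.Tc hT (h.gT Xw (αm _)) (h.gT Yw (βm y)), mul_assoc, ← αa,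
      ← mul_assoc, ← βa, sub_add_cancel, sub_add_cancel]
  have dw : ∀ m, I ((σ m).1 • X) w := fun m => h.smL Xw ((σ m).2.1 w Yw)
  have dY : ∀ m, (σ m).1 • X ≠ Y := fun m e => XY (smul_left_cancel (σ m).1 (e.trans (h.ce_fix (σ m).2.1).symm))
  refine Coord.desarg (K := K) (pt := fun x y => (β y * α x) • O) (dir := fun m => (σ m).1 • X) (Y := Y) (w := w)
    h.toPP ⟨fun p => ?_, Yw, dw, pw, dY, fun m m' e => ?_, fun x y x' y' e => ?_, fun l x y m a b x' y' => ?_,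
    fun l x y a b x' y' => ?_⟩
  · by_cases pY : p = Y
    · exact .inl pY
    by_cases e : I p w
    · obtain ⟨s, rfl⟩ := sX p e pY
      refine .inr (.inl ⟨⟨_, inK s⟩, h.ce_uq (fm s ⟨_, inK s⟩ rfl 1) (fm _ _ (hσ _) 1) fun e => ?_⟩)
      exact ne1 _ (βm _) (α1 ▸ e ▸ one_mem _)
    obtain ⟨l, l1, l2⟩ := h.exL p Y
    obtain ⟨q, q1, q2⟩ := h.exP l lx
    have qw : ¬ I q w := fun e' => Yl' (h.uqP (fun e'' : l = w => e (e'' ▸ l1)) q1 e' l2 Yw ▸ q2)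
    obtain ⟨a, a1, rfl⟩ := h.gam hT Xw Xl Ox q2 Ow qw
    obtain ⟨b, b1, rfl⟩ := h.gam hT Yw l2 q1 l1 qw e
    obtain ⟨x, rfl⟩ := αs a a1
    obtain ⟨y, rfl⟩ := βs b b1
    exact .inr (.inr ⟨x, y, (mul_smul _ _ _).symm⟩)
  · have := βc _ _ _ (dY m) (βm _) _ (fm _ _ (hσ m) 1) ((show (σ m).1 • X = (σ m').1 • X from e) ▸ fm _ _ (hσ m') 1)
    simpa using βi this
  · have e1 := h.T_semi (mul_mem (inv_mem (γm x' y')) (γm x y)) Ow (by rw [mul_smul, inv_smul_eq_iff]; exact e)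
    obtain ⟨a, b⟩ := h.cancel hT Yw Xw YX (βm y') (αm x') (βm y) (αm x) ((inv_mul_eq_one.1 e1).trans
      (h.Tc hT (h.gT Yw (βm y)) (h.gT Xw (αm x))))
    exact ⟨(αi b).symm, (βi a).symm⟩
  · beta_reduce at a b ⊢
    rw [γa x y, h.mv (γm _ _) (pw x y) a b (dw m)]
    exact ⟨fun e => βi (βc _ _ _ (dY m) (βm _) _ e (fm _ _ (hσ m) _)), fun e => e ▸ fm _ _ (hσ m) _⟩
  · beta_reduce at a ⊢
    rw [γa x y, h.mv (γm _ _) (pw x y) a b Yw]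
    refine ⟨fun e => sub_eq_zero.1 (αi (h.two_ce (αm _).1 ?_ XY)), fun e => mul_mem (βm _).1 ?_⟩
    · have := mul_mem (inv_mem (Subgroup.mem_inf.1 (βm (y' - y))).1) e
      rwa [inv_mul_cancel_left] at this
    · rw [e, sub_self]; exact one_mem _

end PA

end Cfsg.Agent.Plane
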