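import Cfsg.Agent.Plane.Count

/-! Wagner's lemma: a plane of odd order in which every two points and every two lines are fixed by an axial
involution has prime power order (`PA.wagner`). -/

set_option autoImplicit false

namespace Cfsg.Agent.Plane

open MulAction

theorem even_of_inv {G X : Type*} [Group G] [MulAction G X] [Finite X] {s : G} (hs : s * s = 1) {S : Set X}
    (h1 : ∀ x ∈ S, s • x ∈ S) (h2 : ∀ x ∈ S, s • x ≠ x) : 2 ∣ S.ncard := by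
  have hf := Set.toFinite S
  have := Finset.sum_involution (s := hf.toFinset) (f := fun _ => (1 : ZMod 2)) (fun x _ => s • x)
    (fun _ _ => by decide) (fun x hx _ => h2 x (by simpa using hx)) (fun x hx => by simpa using h1 x (by simpa using hx))
    (fun x _ => by rw [← mul_smul, hs, one_smul])
  rw [Finset.sum_const, nsmul_eq_mul, mul_one, ZMod.natCast_eq_zero_iff] at this
  rwa [Set.ncard_eq_toFinset_card S hf]

variable {P L : Type*} {I : P → L → Prop} {n : ℕ} {G : Type*} [Group G] [MulAction G P] [MulAction G L]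

/-- `s` is an involutory homology with centre `c` and axis `a`. -/
structure Hom (I : P → L → Prop) (s : G) (c : P) (a : L) : Prop where
  sq : s * s = 1
  ne : s ≠ 1
  ce : s ∈ Ce I c
  ax : s ∈ Ax I a
  off : ¬ I c a

theorem Hom.dual {s : G} {c : P} {a : L} (h : Hom I s c a) : Hom (fun l p => I p l) s a c :=
  ⟨h.sq, h.ne, h.ax, h.ce, h.off⟩

theorem Hom.inv {s : G} {c : P} {a : L} (h : Hom I s c a) : s⁻¹ = s := inv_eq_of_mul_eq_one_right h.sq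

namespace PA
variable (h : PA G I n)
include h

theorem hom_conj {s : G} {c : P} {a : L} (hs : Hom I s c a) (k : G) : Hom I (k * s * k⁻¹) (k • c) (k • a) :=
  ⟨by calc _ = k * (s * s) * k⁻¹ := by group
      _ = 1 := by rw [hs.sq]; group, by simpa using hs.ne, h.ce_conj hs.ce k, h.ax_conj hs.ax k,
    fun e => hs.off ((h.inv k c a).1 e)⟩

theorem T_sq (hn : Odd n) {g : G} {a : L} (hg : g ∈ h.T a) (e : g * g = 1) : g = 1 := by
  have := h.finG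
  have h1 : orderOf g ∣ n ^ 2 := (Subgroup.orderOf_dvd_natCard _ hg).trans (h.card_T_dvd a)
  have h2 : orderOf g ∣ 2 := orderOf_dvd_of_pow_eq_one (by rw [pow_two, e])
  exact orderOf_eq_one_iff.1 (Nat.eq_one_of_dvd_coprimes ((Nat.coprime_two_right.2 hn).pow_left 2) h1 h2)

theorem hom_of (hn : Odd n) {s : G} {a : L} (s0 : s * s = 1) (s1 : s ≠ 1) (sa : s ∈ Ax I a) : ∃ c, Hom I s c a := by
  obtain ⟨c, hc⟩ := h.exists_ce sa
  exact ⟨c, s0, s1, hc, sa, fun e => s1 (h.T_sq hn ⟨sa, c, e, hc⟩ s0)⟩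

theorem comm_hom {s t : G} {A B : P} {a b k : L} (hs : Hom I s A a) (ht : Hom I t B b) (Ba : I B a) (Ab : I A b)
    (Ak : I A k) (Bk : I B k) : s * t * (s * t) = 1 ∧ s * t ≠ 1 ∧ s * t ∈ Ax I k := by
  have := h.finP
  have AB : A ≠ B := fun e => hs.off (e ▸ Ba)
  have ab : a ≠ b := fun e => hs.off (e ▸ Ab)
  have h1 : s * t * s⁻¹ * t⁻¹ ∈ Ce I B := mul_mem (by simpa [hs.ax B Ba] using h.ce_conj ht.ce s) (inv_mem ht.ce)
  have h2 : s * (t * s⁻¹ * t⁻¹) ∈ Ce I A := mul_mem hs.ce (by simpa [ht.ax A Ab] using h.ce_conj (inv_mem hs.ce) t)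
  have h3 : s * t * (s * t) = 1 := by
    have := h.two_ce h2 (by simpa [mul_assoc] using h1) AB
    rwa [hs.inv, ht.inv, ← mul_assoc, ← mul_assoc, mul_assoc (s * t)] at this
  have fA : (s * t) • A = A := by rw [mul_smul, ht.ax A Ab, h.ce_fix hs.ce]
  have fa : (s * t) • a = a := by rw [mul_smul, ht.ce a Ba, h.ax_fix hs.ax]
  have fb : (s * t) • b = b := by rw [mul_smul, h.ax_fix ht.ax, hs.ce b Ab]
  have nb : s * t ∉ Ax I b := fun e => hs.ne (h.two_ax hs.ax (by simpa using mul_mem e (inv_mem ht.ax)) ab)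
  refine ⟨h3, fun e => nb (e ▸ one_mem _), fun x hx => ?_⟩
  by_cases e : x = A
  · rw [e, fA]
  have h4 : {x | ¬ I x b ∧ (s * t) • x = x} = {x | I x k ∧ x ≠ A} := by
    refine Set.eq_of_subset_of_ncard_le (fun y hy => ?_) (by rw [h.inv_off h3 fb nb, h.on_diff Ak])
    have yA : y ≠ A := fun e => hy.1 (e ▸ Ab)
    refine ⟨?_, yA⟩
    obtain ⟨m, m1, m2⟩ := h.exL y A
    obtain ⟨z, z1, z2⟩ := h.exP m a
    have z3 : (s * t) • z = z := h.fixP (fun e : m = a => hs.off (e ▸ m2)) (h.fixL yA hy.2 fA m1 m2) fa z1 z2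
    have z4 : t • z = z := by rwa [mul_smul, ← eq_inv_smul_iff, hs.inv, hs.ax z z2] at z3
    have zA : z ≠ A := fun e => hs.off (e ▸ z2)
    rcases h.fix_pt ht.ax ht.ce ht.ne z4 with rfl | z5
    · exact h.uqL zA z1 m2 Bk Ak ▸ m1
    · exact absurd (h.uqL zA z1 m2 z5 Ab ▸ m1) hy.1
  exact (h4.ge ⟨hx, e⟩).2

theorem all_axes (hn : Odd n)
    (hP : ∀ A B : P, A ≠ B → ∃ (s : G) (a : L), s * s = 1 ∧ s ≠ 1 ∧ s ∈ Ax I a ∧ s • A = A ∧ s • B = B) (k : L) :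
    ∃ (s : G) (c : P), Hom I s c k := by
  have := h.finP
  by_contra hk
  have key : ∀ A B, I A k → I B k → A ≠ B → ∃ (s : G) (a : L), s • A = A ∧ s • B = B ∧ s • k = k ∧
      (∀ x, I x k → s • x = x → x = A ∨ x = B) ∧ (Hom I s A a ∧ I B a ∨ Hom I s B a ∧ I A a) := by
    intro A B Ak Bk e
    obtain ⟨s, a, s0, s1, sa, sA, sB⟩ := hP A B e
    obtain ⟨c, hc⟩ := h.hom_of hn s0 s1 sa
    have ak : a ≠ k := fun e => hk ⟨s, c, e ▸ hc⟩
    refine ⟨s, a, sA, sB, h.fixL e sA sB Ak Bk, ?_⟩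
    rcases h.fix_pt sa hc.ce s1 sA with rfl | h1 <;> rcases h.fix_pt sa hc.ce s1 sB with rfl | h2
    · exact absurd rfl e
    · exact ⟨fun x x1 x2 => (h.fix_pt sa hc.ce s1 x2).imp_right fun x3 => h.uqP ak x3 x1 h2 Bk, Or.inl ⟨hc, h2⟩⟩
    · exact ⟨fun x x1 x2 => ((h.fix_pt sa hc.ce s1 x2).imp_right fun x3 => h.uqP ak x3 x1 h1 Ak).symm,
        Or.inr ⟨hc, h1⟩⟩
    · exact absurd (h.uqL e h1 h2 Ak Bk) ak
  have gl : ∀ A B C, I A k → I B k → I C k → A ≠ B → A ≠ C → ∃ g : G, g • A = A ∧ g • B = C := by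
    intro A B C Ak Bk Ck AB AC
    by_contra hc
    set H := stabilizer G A ⊓ stabilizer G k
    have oi : ∀ s ∈ H, ∀ x ∈ orb H B, s • x ∈ orb H B := by
      rintro s hs _ ⟨g, hg, rfl⟩; exact ⟨s * g, mul_mem hs hg, mul_smul _ _ _⟩
    have ok : ∀ x ∈ orb H B, I x k ∧ x ≠ A := by
      rintro _ ⟨g, hg, rfl⟩
      exact ⟨h.smL Bk hg.2, fun e => AB (smul_left_cancel g (hg.1.trans e.symm))⟩
    obtain ⟨s, a, s1, s2, s3, s4, s5⟩ := key A B Ak Bk AB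
    obtain ⟨t, b, t1, t2, t3, t4, t5⟩ := key A C Ak Ck AC
    have s0 : s * s = 1 := s5.elim (·.1.sq) (·.1.sq)
    have h1 := even_of_inv (t5.elim (·.1.sq) (·.1.sq)) (oi t ⟨t1, t3⟩) fun x hx e => by
      rcases t4 x (ok x hx).1 e with rfl | rfl
      · exact (ok _ hx).2 rfl
      · obtain ⟨g, hg, e⟩ := hx; exact hc ⟨g, hg.1, e⟩
    have h2 := even_of_inv s0 (S := orb H B \ {B}) (fun x hx => ⟨oi s ⟨s1, s3⟩ x hx.1, fun e => hx.2
      (smul_left_cancel s (e.trans s2.symm))⟩) fun x hx e => (s4 x (ok x hx.1).1 e).elim (ok x hx.1).2 hx.2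
    have h3 := Set.ncard_diff_singleton_add_one (s := orb H B) (a := B) ⟨1, one_mem _, one_smul _ _⟩
    omega
  have fin : ∀ A B (s : G) a, I A k → I B k → Hom I s A a → I B a → False := by
    intro A B s a Ak Bk hs Ba
    have AB : A ≠ B := fun e => hs.off (e ▸ Ba)
    obtain ⟨C, Ck, CA, CB⟩ := h.ex3 k A B
    obtain ⟨g1, a1, a2⟩ := gl A B C Ak Bk Ck AB CA.symm
    obtain ⟨g2, b1, b2⟩ := gl C A B Ck Ak Bk CA CB
    obtain ⟨g3, c1, c2⟩ := gl B C A Bk Ck Ak CB.symm AB.symm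
    have e1 : (g3 * g2 * g1) • A = B := by rw [mul_smul, mul_smul, a1, b2, c1]
    have e2 : (g3 * g2 * g1) • B = A := by rw [mul_smul, mul_smul, a2, b1, c2]
    obtain ⟨h1, h2, h3⟩ := h.comm_hom hs (e1 ▸ h.hom_conj hs (g3 * g2 * g1)) Ba (e2 ▸ h.sm _ Ba) Ak Bk
    obtain ⟨c, hc⟩ := h.hom_of hn h1 h2 h3
    exact hk ⟨_, c, hc⟩
  obtain ⟨p⟩ := h.neP
  obtain ⟨A, Ak, -⟩ := h.ex3 k p p
  obtain ⟨B, Bk, BA, -⟩ := h.ex3 k A A
  obtain ⟨s, a, -, -, -, -, ⟨h1, h2⟩ | ⟨h1, h2⟩⟩ := key A B Ak Bk BA.symm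
  exacts [fin A B s a Ak Bk h1 h2, fin B A s a Bk Ak h1 h2]

theorem gam_le {b : L} {c d : P} (cb : I c b) (db : I d b) (e : c ≠ d) :
    Nat.card (Ce I c ⊓ Ax I b : Subgroup G) * Nat.card (Ce I d ⊓ Ax I b : Subgroup G) ≤ Nat.card (h.T b) := by
  have := h.finG
  rw [← Nat.card_prod]
  refine Nat.card_le_card_of_injective (fun x => ⟨x.1.1 * x.2.1, mul_mem ⟨x.1.2.2, c, cb, x.1.2.1⟩
    ⟨x.2.2.2, d, db, x.2.2.1⟩⟩) fun x y e' => ?_
  have e1 : x.1.1 * x.2.1 = y.1.1 * y.2.1 := congrArg Subtype.val e'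
  have e2 : y.1.1⁻¹ * x.1.1 = y.2.1 * x.2.1⁻¹ := by rw [inv_mul_eq_iff_eq_mul, ← mul_assoc, ← e1]; group
  have e3 := h.two_ce (mul_mem (inv_mem y.1.2.1) x.1.2.1) (e2 ▸ mul_mem y.2.2.1 (inv_mem x.2.2.1)) e
  exact Prod.ext (Subtype.ext (inv_mul_eq_one.1 e3).symm) (Subtype.ext (mul_inv_eq_one.1 (e2 ▸ e3)).symm)

theorem le_gam (hn : Odd n) {b a : L} {c : P} {s : G} (cb : I c b) (hs : Hom I s c a)
    (hc : ∀ g ∈ h.T b, ∀ k ∈ h.T b, g * k = k * g) : ∃ d, I d b ∧ d ≠ c ∧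
    Nat.card (h.T b) ≤ Nat.card (Ce I d ⊓ Ax I b : Subgroup G) * Nat.card (Ce I c ⊓ Ax I b : Subgroup G) := by
  have := h.finG
  obtain ⟨d, d1, d2⟩ := h.exP a b
  have ab : a ≠ b := fun e => hs.off (e ▸ cb)
  refine ⟨d, d2, fun e => hs.off (e ▸ d1), ?_⟩
  rw [← Nat.card_prod]
  refine Nat.card_le_card_of_surjective (fun x => ⟨x.1.1 * x.2.1, mul_mem ⟨x.1.2.2, d, d2, x.1.2.1⟩
    ⟨x.2.2.2, c, cb, x.2.2.1⟩⟩) fun ⟨t, ht⟩ => ?_
  obtain ⟨j, hj⟩ : Odd (Nat.card (h.T b)) := (hn.pow (n := 2)).of_dvd_nat (h.card_T_dvd b)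
  obtain ⟨u, hu, rfl⟩ : ∃ u ∈ h.T b, u * u = t := ⟨t ^ (j + 1), pow_mem ht _, by
    have : t ^ (2 * j + 1) = 1 := by
      rw [← hj]; exact congrArg Subtype.val (pow_card_eq_one' (x := (⟨t, ht⟩ : h.T b)))
    calc _ = t ^ (2 * j + 1) * t := by rw [← pow_add, ← pow_succ]; congr 1; ring
      _ = t := by rw [this, one_mul]⟩
  have su : s * u * s⁻¹ ∈ h.T b := by simpa [hs.ce b cb] using h.T_conj hu s
  have x1 := mul_mem hu su
  have y1 := mul_mem (inv_mem su) hu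
  have x2 : u * (s * u * s⁻¹) ∈ Ce I d := by
    by_cases e : u * (s * u * s⁻¹) = 1
    · rw [e]; exact one_mem _
    obtain ⟨x3, f, f1, f2⟩ := x1
    have e1 : u * (s * u * s⁻¹) * s * (u * (s * u * s⁻¹))⁻¹ = s := by
      rw [mul_inv_eq_iff_eq_mul]
      conv_rhs => rw [hc u hu _ su, hs.inv, ← mul_assoc, ← mul_assoc, ← mul_assoc, hs.sq]
      group
    have e2 := h.ax_uq (e1 ▸ h.ax_conj hs.ax (u * (s * u * s⁻¹))) hs.ax hs.ne
    rw [h.uqP ab d1 d2 ((h.fix_ln x3 f2 e e2).resolve_left ab) f1]; exact f2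
  have y2 : (s * u * s⁻¹)⁻¹ * u ∈ Ce I c := by
    generalize hy : (s * u * s⁻¹)⁻¹ * u = y at y1
    have e1 : s * y * s⁻¹ = y⁻¹ := by
      rw [← hy, hs.inv]
      calc _ = (s * s⁻¹) * u⁻¹ * s⁻¹ * u * s := by group
        _ = _ := by rw [hs.inv, hs.sq]; group
    by_cases e : y = 1
    · rw [e]; exact one_mem _
    obtain ⟨x3, f, f1, f2⟩ := id y1
    have e2 : s • f = f := h.ce_uq (e1 ▸ h.ce_conj f2 s) (inv_mem f2) (inv_ne_one.2 e)
    rcases h.fix_pt hs.ax hs.ce hs.ne e2 with rfl | fa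
    · exact f2
    have e3 : y * s * y⁻¹ * s ∈ Ax I a := mul_mem (by simpa [f2 a fa] using h.ax_conj hs.ax y) hs.ax
    have e4 : y * s * y⁻¹ * s = y * y := by
      rw [← e1, hs.inv]
      calc _ = y * (s * s) * y * (s * s) := by group
        _ = _ := by rw [hs.sq]; group
    exact absurd (h.T_sq hn y1 (h.two_ax (e4 ▸ e3) (mul_mem x3 x3) ab)) e
  exact ⟨(⟨_, x2, x1.1⟩, ⟨_, y2, y1.1⟩), Subtype.ext (by simp only []; group)⟩

theorem two_centres (hn : Odd n) (hC : ∀ c, ∃ (s : G) (a : L), Hom I s c a) {b : L} {c₁ c₂ : P} {g₁ g₂ : G}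
    (e : c₁ ≠ c₂) (a1 : I c₁ b) (a2 : I c₂ b) (b1 : g₁ ≠ 1) (b2 : g₂ ≠ 1) (d1 : g₁ ∈ Ce I c₁ ⊓ Ax I b)
    (d2 : g₂ ∈ Ce I c₂ ⊓ Ax I b) : ∃ p k : ℕ, p.Prime ∧ n = p ^ k := by
  classical
  have := h.finG
  have := h.finP
  cases nonempty_fintype P
  have h2 : ∀ c, I c b → ∃ d, ∃ k : G, I d b ∧ d ≠ c ∧ k ≠ 1 ∧ k ∈ Ax I b ∧ k ∈ Ce I d := fun c _ => by
    by_cases e' : c₁ = c
    exacts [⟨c₂, g₂, a2, e' ▸ e.symm, b2, d2.2, d2.1⟩, ⟨c₁, g₁, a1, e', b1, d1.2, d1.1⟩]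
  have hc : ∀ g ∈ h.T b, ∀ k ∈ h.T b, g * k = k * g := fun g hg k hk => h.T_comm h2 hg hk
  set hh : P → ℕ := fun c => Nat.card (Ce I c ⊓ Ax I b : Subgroup G) with hhh
  have le : ∀ c, I c b → ∃ d, I d b ∧ d ≠ c ∧ Nat.card (h.T b) ≤ hh d * hh c := fun c cb =>
    let ⟨_, _, hs⟩ := hC c; h.le_gam hn cb hs hc
  obtain ⟨c, cb, hM⟩ := Finset.exists_max_image (Finset.univ.filter (I · b)) hh ⟨c₁, by simpa⟩
  simp only [Finset.mem_filter, Finset.mem_univ, true_and] at cb hM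
  obtain ⟨d, db, dc, h1⟩ := le c cb
  have ht : Nat.card (h.T b) = hh d * hh c := le_antisymm h1 (h.gam_le db cb dc)
  have M0 : 0 < hh c := Nat.card_pos
  have eq : ∀ x, I x b → x ≠ c → hh x = hh d := fun x xb xc => by
    obtain ⟨y, yb, -, h3⟩ := le x xb
    refine le_antisymm (Nat.le_of_mul_le_mul_right (ht ▸ h.gam_le xb cb xc) M0) (Nat.le_of_mul_le_mul_right ?_ M0)
    exact ht ▸ h3.trans (by rw [mul_comm]; exact Nat.mul_le_mul_left _ (hM y yb))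
  have h3 := h.card_T b
  rw [← Finset.add_sum_erase _ _ (a := c) (by simpa), Finset.sum_congr rfl (g := fun _ => hh d) fun x hx => by
    simp only [Finset.mem_erase, Finset.mem_filter, Finset.mem_univ, true_and] at hx
    exact eq x hx.2 hx.1, Finset.sum_const, smul_eq_mul, ht] at h3
  have e0 : ((Finset.univ.filter (I · b)).erase c).card = n := by
    rw [← h.on_diff cb, ← Set.ncard_coe_finset]; congr 1; ext; simp [and_comm]
  obtain ⟨x, u, xb, xc, u1, u2, u3⟩ := h2 c cb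
  have m1 : 1 < hh x := Subgroup.one_lt_card_iff_ne_bot _ |>.2 fun e =>
    u1 (by have : u ∈ Ce I x ⊓ Ax I b := ⟨u3, u2⟩; simpa [e] using this)
  have hn' : hh c = n := by
    rw [e0] at h3
    rw [eq x xb xc] at m1
    obtain ⟨m, hm⟩ := Nat.exists_eq_add_of_lt m1
    change hh d * hh c + (n + 1) = 1 + (hh c + n * hh d) at h3
    rw [hm] at h3
    exact Nat.eq_of_mul_eq_mul_left (show 0 < m + 1 by omega) (by linarith)
  obtain ⟨p, hp, hpd⟩ := Nat.exists_prime_and_dvd m1.ne'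
  haveI := Fact.mk hp
  obtain ⟨⟨v, v1, v2⟩, hv⟩ := exists_prime_orderOf_dvd_card' p hpd
  have v3 : v ^ p = 1 := by rw [← hv]; exact congrArg Subtype.val (pow_orderOf_eq_one (⟨v, v1, v2⟩ : (_ ⊓ _ : Subgroup G)))
  have v4 : v ≠ 1 := fun e => hp.one_lt.ne' (by rw [← hv, orderOf_eq_one_iff]; exact Subtype.ext e)
  have pg : IsPGroup p (Ce I c ⊓ Ax I b : Subgroup G) := fun ⟨g, g1, g2⟩ => ⟨1, Subtype.ext <| by
    have gT : g ∈ h.T b := ⟨g2, c, cb, g1⟩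
    have vT : v ∈ h.T b := ⟨v2, x, xb, v1⟩
    obtain ⟨-, f, -, f2⟩ := mul_mem gT vT
    have fc : f ≠ c := fun e => v4 (h.two_ce v1 (by
      have := mul_mem (inv_mem (show g ∈ Ce I c from g1)) (e ▸ f2); rwa [inv_mul_cancel_left] at this) xc)
    have := pow_mem f2 p
    rw [Commute.mul_pow (hc g gT v vT), v3, mul_one] at this
    simpa using h.two_ce this (pow_mem g1 p) fc⟩
  obtain ⟨k, hk⟩ := pg.exists_card_eq
  exact ⟨p, k, hp, hn' ▸ hk⟩

omit h in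
theorem polarity [Finite P] (R : P → P → Prop) (hs : ∀ c d, R c d → R d c) (hi : ∀ c, ¬ R c c)
    (h1 : ∀ c, {e | R c e}.ncard = n + 1) (h2 : ∀ c d, c ≠ d → ∃! e, R c e ∧ R d e) (hn : 2 ≤ n)
    (hc : Nat.card P = n ^ 2 + n + 1) : False := by
  classical
  cases nonempty_fintype P
  obtain ⟨p, hp, k, hk⟩ := Nat.exists_prime_and_dvd (show n ≠ 1 by omega)
  haveI := Fact.mk hp
  have n0 : (n : ZMod p) = 0 := by rw [hk]; simp
  let A : Matrix P P (ZMod p) := fun c d => if R c d then 1 else 0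
  let J : Matrix P P (ZMod p) := fun _ _ => 1
  have row : ∀ c, ∑ e, A c e = 1 := fun c => by
    have : (Finset.univ.filter (R c)).card = n + 1 := by
      rw [← h1 c, ← Set.ncard_coe_finset]; congr 1; ext; simp
    simp only [A, Finset.sum_boole, this]; push_cast; rw [n0, zero_add]
  have AA : A * A = J := by
    ext c d
    have e1 : ∀ e, A c e * A e d = if R c e ∧ R d e then 1 else 0 := fun e => by
      have : R e d ↔ R d e := ⟨hs _ _, hs _ _⟩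
      simp only [A, this]; split_ifs <;> simp_all
    simp only [Matrix.mul_apply, e1, J]
    by_cases e : c = d
    · subst e; simpa [A] using row c
    · obtain ⟨x, hx, hu⟩ := h2 c d e
      rw [Finset.sum_eq_single x (fun y _ hy => if_neg fun e => hy (hu y e)) (by simp), if_pos hx]
  have AJ : A * J = J := by
    ext c d; rw [Matrix.mul_apply]; simp only [J, mul_one, row]
  have pw : ∀ j, A ^ (j + 2) = J := fun j => by
    induction j with
    | zero => rw [zero_add, pow_two, AA]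
    | succ j ih => rw [add_right_comm, pow_succ', ih, AJ]
  have t := ZMod.trace_pow_card A
  obtain ⟨j, hj⟩ := Nat.exists_eq_add_of_le' hp.two_le
  have t0 : A.trace = 0 := by simp [Matrix.trace, Matrix.diag, A, hi]
  have t1 : J.trace = 1 := by
    simp only [Matrix.trace, Matrix.diag, J, Finset.sum_const, Finset.card_univ, ← Nat.card_eq_fintype_card, hc]
    simp [n0]
  rw [t0, zero_pow hp.ne_zero, show A ^ p = J from (congrArg (fun k => A ^ k) hj).trans (pw j), t1] at t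
  exact one_ne_zero t

theorem wagner (hn : Odd n)
    (hP : ∀ A B : P, A ≠ B → ∃ (s : G) (a : L), s * s = 1 ∧ s ≠ 1 ∧ s ∈ Ax I a ∧ s • A = A ∧ s • B = B)
    (hL : ∀ l m : L, l ≠ m → ∃ (s : G) (a : L), s * s = 1 ∧ s ≠ 1 ∧ s ∈ Ax I a ∧ s • l = l ∧ s • m = m) :
    ∃ p k : ℕ, p.Prime ∧ n = p ^ k := by
  have hA := h.all_axes hn hP
  have hC : ∀ c, ∃ (s : G) (a : L), Hom I s c a := fun c => by
    obtain ⟨s, a, hs⟩ := h.dual.all_axes hn (fun l m e => by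
      obtain ⟨s, a, s0, s1, sa, s2⟩ := hL l m e
      obtain ⟨c, hc⟩ := h.exists_ce sa
      exact ⟨s, c, s0, s1, hc, s2⟩) c
    exact ⟨s, a, hs.dual⟩
  by_cases hE : ∃ (t : G) (c : P) (b : L), t ≠ 1 ∧ I c b ∧ t ∈ Ce I c ∧ t ∈ Ax I b
  · obtain ⟨t, c, b, t1, cb, tc, tb⟩ := hE
    by_cases h1 : ∃ (g : G) (d : P), g ≠ 1 ∧ I d b ∧ g ∈ Ce I d ∧ g ∈ Ax I b ∧ d ≠ c
    · obtain ⟨g, d, g1, db, gd, gb, e⟩ := h1
      exact h.two_centres hn hC e db cb g1 t1 ⟨gd, gb⟩ ⟨tc, tb⟩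
    by_cases h2 : ∃ (g : G) (a : L), g ≠ 1 ∧ I c a ∧ g ∈ Ce I c ∧ g ∈ Ax I a ∧ a ≠ b
    · obtain ⟨g, a, g1, ca, gc, ga, e⟩ := h2
      exact h.dual.two_centres hn (fun l => let ⟨s, c, hs⟩ := hA l; ⟨s, c, hs.dual⟩) e ca cb g1 t1 ⟨ga, gc⟩ ⟨tb, tc⟩
    exfalso
    push Not at h1 h2
    obtain ⟨σ, a, hσ⟩ := hC c
    obtain ⟨D, D1, D2⟩ := h.exP a b
    obtain ⟨x, xb, xc, xD⟩ := h.ex3 b c D
    obtain ⟨s, a', hs⟩ := hC x
    have sb : s • b = b := hs.ce b xb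
    have sc : s • c = c := h1 (s * t * s⁻¹) _ (by simpa using t1) (h.smL cb sb) (h.ce_conj tc s) (sb ▸ h.ax_conj tb s)
    have hσ' := sc ▸ h.hom_conj hσ s
    have sD : s • D = D := by
      by_cases e : s • a = a
      · exact h.fixP (fun e' : a = b => hσ.off (e' ▸ cb)) e sb D1 D2
      obtain ⟨g1, k, k1, k2⟩ := h.dual.mul_T hσ.sq hσ'.sq hσ.ne hσ'.ne hσ.ce hσ'.ce hσ.ax hσ'.ax (Ne.symm e)
      have ne : σ * (s * σ * s⁻¹) ≠ 1 := fun e' => hσ.ne (h.two_ax hσ.ax (by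
        rw [eq_inv_of_mul_eq_one_left e']; exact inv_mem hσ'.ax) (Ne.symm e))
      obtain rfl := h2 _ k ne k1 g1 k2
      obtain ⟨E, E1, E2⟩ := h.exP a (s • a)
      have E3 := (h.fix_pt k2 g1 ne (x := E) (by rw [mul_smul, hσ'.ax E E2, hσ.ax E E1])).resolve_left
        fun e' => hσ.off (e' ▸ E1)
      obtain rfl := h.uqP (fun e' : a = k => hσ.off (e' ▸ cb)) E1 E3 D1 D2
      exact h.uqP (fun e' : s • a = k => hσ'.off (e' ▸ cb)) (h.sm s D1) (h.smL D2 sb) E2 D2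
    have c1 := (h.fix_pt hs.ax hs.ce hs.ne sc).resolve_left xc.symm
    have c2 := (h.fix_pt hs.ax hs.ce hs.ne sD).resolve_left xD.symm
    exact hs.off (h.uqL (fun e : c = D => hσ.off (e ▸ D1)) cb D2 c1 c2 ▸ xb)
  exfalso
  push Not at hE
  have := h.finP
  choose σ π hπ using hC
  have uc : ∀ s t c d a, Hom I s c a → Hom I t d a → c = d := fun (s t : G) c d a hs ht => by_contra fun e => by
    obtain ⟨g1, f, f1, f2⟩ := h.mul_T hs.sq ht.sq hs.ne ht.ne hs.ax ht.ax hs.ce ht.ce e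
    exact hE _ f a (fun e' => hs.ne (h.two_ce hs.ce (by
      rw [eq_inv_of_mul_eq_one_left e']; exact inv_mem ht.ce) e)) f1 f2 g1
  have ua : ∀ s t c a b, Hom I s c a → Hom I t c b → a = b := fun (s t : G) c a b hs ht => by_contra fun e => by
    obtain ⟨g1, f, f1, f2⟩ := h.dual.mul_T hs.sq ht.sq hs.ne ht.ne hs.ce ht.ce hs.ax ht.ax e
    exact hE _ c f (fun e' => hs.ne (h.two_ax hs.ax (by
      rw [eq_inv_of_mul_eq_one_left e']; exact inv_mem ht.ax) e)) f1 g1 f2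
  refine polarity (fun c d => I d (π c)) (fun c d hd => ?_) (fun c => (hπ c).off) (fun c => h.onL _)
    (fun c d e => ?_) h.two_le h.cardP
  · have h1 := h.hom_conj (hπ d) (σ c)
    rw [(hπ c).ax d hd] at h1
    exact (h.fix_ln (hπ c).ax (hπ c).ce (hπ c).ne (ua _ _ _ _ _ h1 (hπ d))).resolve_left
      fun e => (hπ d).off (e ▸ hd)
  · obtain ⟨x, hx⟩ := h.exP (π c) (π d)
    exact ⟨x, hx, fun y hy => h.uqP (fun e' => e (uc _ _ _ _ _ (hπ c) (e' ▸ hπ d))) hy.1 hy.2 hx.1 hx.2⟩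

end PA

end Cfsg.Agent.Plane
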