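import Cfsg.Agent.Plane.Persp
import Cfsg.Agent.Plane.Wagner

/-! Collineation group `Col I`, Baer subplanes (`PA.baer`), prime power order of planes of odd order with a
2-transitive collineation group (`PA.odd_ppow`) and transitivity of all elation groups (`PA.moufang`). -/

set_option autoImplicit false

namespace Cfsg.Agent.Plane

open MulAction

variable {P L : Type*} {I : P → L → Prop} {n : ℕ} {G : Type*} [Group G] [MulAction G P] [MulAction G L]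

/-- The full collineation group. -/
def Col (I : P → L → Prop) : Subgroup (Equiv.Perm P × Equiv.Perm L) where
  carrier := {g | ∀ p l, I (g.1 p) (g.2 l) ↔ I p l}
  one_mem' := fun _ _ => Iff.rfl
  mul_mem' := fun {g k} hg hk p l => (hg (k.1 p) (k.2 l)).trans (hk p l)
  inv_mem' := fun {g} hg p l => by simpa using (hg (g.1⁻¹ p) (g.2⁻¹ l)).symm

instance colP : MulAction (Col I) P where
  smul g p := g.1.1 p
  one_smul _ := rfl
  mul_smul _ _ _ := rfl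

instance colL : MulAction (Col I) L where
  smul g l := g.1.2 l
  one_smul _ := rfl
  mul_smul _ _ _ := rfl

theorem PP.col (h : PP I n) : PA (Col I) I n :=
  ⟨h, fun g => g.2, fun _ h1 h2 => Subtype.ext (Prod.ext (Equiv.ext h1) (Equiv.ext h2))⟩

theorem PP.congr {P' L' : Type*} {J : P' → L' → Prop} (h : PP I n) (e : P' ≃ P) (f : L' ≃ L)
    (hJ : ∀ p l, J p l ↔ I (e p) (f l)) : PP J n := by
  refine ⟨fun p q => ?_, fun l m => ?_, fun a b c d => ?_, fun l => ?_, fun p => ?_, h.two_le, ?_, ?_⟩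
  · obtain ⟨l, h1⟩ := h.exL (e p) (e q)
    exact ⟨f.symm l, by simpa [hJ] using h1⟩
  · obtain ⟨p, h1⟩ := h.exP (f l) (f m)
    exact ⟨e.symm p, by simpa [hJ] using h1⟩
  · rw [hJ] at a b c d
    simpa using h.uq a b c d
  · rw [← h.onL (f l)]
    exact Set.ncard_congr (fun p _ => e p) (fun p hp => (hJ _ _).1 hp) (fun _ _ _ _ e' => e.injective e')
      fun p hp => ⟨e.symm p, by simpa [hJ] using hp, by simp⟩
  · rw [← h.thru (e p)]
    exact Set.ncard_congr (fun l _ => f l) (fun l hl => (hJ _ _).1 hl) (fun _ _ _ _ e' => f.injective e')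
      fun l hl => ⟨f.symm l, by simpa [hJ] using hl, by simp⟩
  · rw [Nat.card_congr e, h.cardP]
  · rw [Nat.card_congr f, h.cardL]

/-- Incidence in a substructure. -/
def IS (I : P → L → Prop) (S : P → Prop) (M : L → Prop) (p : Subtype S) (l : Subtype M) : Prop := I p.1 l.1

/-- Fixed by a subgroup. -/
def Fx {X : Type*} [MulAction G X] (H : Subgroup G) (x : X) : Prop := ∀ g ∈ H, g • x = x

theorem idx2 [Finite G] {H K : Subgroup G} (hle : H ≤ K) (hc : Nat.card K = Nat.card H * 2) {a b : G} (ha : a ∈ K)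
    (hb : b ∈ K) : a * b ∈ H ↔ (a ∈ H ↔ b ∈ H) := by
  have h1 := (H.subgroupOf K).card_mul_index
  rw [hc, Nat.card_congr (Subgroup.subgroupOfEquivOfLe hle).toEquiv] at h1
  exact Subgroup.mul_mem_iff_of_index_two (Nat.eq_of_mul_eq_mul_left Nat.card_pos h1) (a := ⟨a, ha⟩) (b := ⟨b, hb⟩)

theorem exists_up [Finite G] {H K : Subgroup G} (hle : H ≤ K) {k : ℕ} (hc : Nat.card H = 2 ^ k)
    (hd : 2 ^ (k + 1) ∣ Nat.card K) : ∃ Q ≤ K, H ≤ Q ∧ Nat.card Q = 2 ^ (k + 1) := by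
  obtain ⟨Q, h1, h2⟩ := Sylow.exists_subgroup_card_pow_succ (H := H.subgroupOf K) hd
    (by rw [Nat.card_congr (Subgroup.subgroupOfEquivOfLe hle).toEquiv, hc])
  exact ⟨Q.map K.subtype, Subgroup.map_subtype_le _, (Subgroup.map_subgroupOf_eq_of_le hle).ge.trans
    (Subgroup.map_mono h2), by rw [Subgroup.card_map_of_injective K.subtype_injective, h1]⟩

theorem fx_idx2 [Finite G] {H Q : Subgroup G} (q2 : H ≤ Q) (q4 : Nat.card Q = Nat.card H * 2) {s : G} (s1 : s ∈ Q)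
    (s2 : s ∉ H) {X : Type*} [MulAction G X] (x : X) : Fx Q x ↔ Fx H x ∧ s • x = x :=
  ⟨fun hx => ⟨fun g hg => hx g (q2 hg), hx s s1⟩, fun hx g hg => by
    by_cases e : g ∈ H
    · exact hx.1 g e
    · have := hx.1 _ ((idx2 q2 q4 (inv_mem s1) hg).2 (by simp [s2, e]))
      rwa [mul_smul, inv_smul_eq_iff, hx.2] at this⟩

/-- The permutation induced on the fixed points of `H` by a normalising element with square in `H`. -/
def resPerm {X : Type*} [MulAction G X] {H : Subgroup G} {s : G} (h1 : ∀ g ∈ H, s⁻¹ * g * s ∈ H) (h2 : s * s ∈ H) :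
    Equiv.Perm (Subtype (Fx (X := X) H)) :=
  Function.Involutive.toPerm (fun x => ⟨s • x.1, fun g hg => by
    have := x.2 _ (h1 g hg)
    rwa [mul_smul, mul_smul, inv_smul_eq_iff] at this⟩) fun x => Subtype.ext (by
      simp only [← mul_smul]; exact x.2 _ h2)

namespace PA
variable (h : PA G I n)
include h

theorem baer {r : G} (r0 : r * r = 1) (hr : ∀ a, r ∉ Ax I a) :
    ∃ m, PP (IS I (fun p => r • p = p) (fun l => r • l = l)) m ∧ n = m ^ 2 := by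
  have := h.finP
  have := h.finL
  have h2 := h.two_le
  have hr' : ∀ c, r ∉ Ce I c := fun c hc => let ⟨a, ha⟩ := h.exists_ax hc; hr a ha
  have ex : ∀ l : L, r • l = l → ∃ x y, x ≠ y ∧ ¬ I x l ∧ r • x = x ∧ ¬ I y l ∧ r • y = y := fun l hl => by
    obtain ⟨x, y, h1, h3, h4⟩ := (Set.one_lt_ncard_iff (s := {x | ¬ I x l ∧ r • x = x})).1
      (by rw [h.inv_off r0 hl (hr l)]; omega)
    exact ⟨x, y, h4, h1.1, h1.2, h3.1, h3.2⟩
  obtain ⟨l, hl⟩ : ∃ l : L, r • l = l := by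
    obtain ⟨a⟩ := h.neL
    obtain ⟨x, -, hx⟩ : ∃ x, I x a ∧ r • x ≠ x := by
      by_contra hc; push Not at hc; exact hr a hc
    obtain ⟨l, l1, l2⟩ := h.exL x (r • x)
    exact ⟨l, h.uqL hx (h.sm r l1) (by simpa [← mul_smul, r0] using h.sm r l2) l2 l1⟩
  obtain ⟨m, hm⟩ : ∃ m, PP (IS I (fun p => r • p = p) (fun l => r • l = l)) m := by
    refine PP.of_config (fun p q e => ?_) (fun l m e => ?_) (fun a b c d => ?_) (fun l => ?_) (fun p => ?_) ?_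
    · obtain ⟨l, l1, l2⟩ := h.exL p.1 q.1
      exact ⟨⟨l, h.fixL (fun e' => e (Subtype.ext e')) p.2 q.2 l1 l2⟩, l1, l2⟩
    · obtain ⟨p, l1, l2⟩ := h.exP l.1 m.1
      exact ⟨⟨p, h.fixP (fun e' => e (Subtype.ext e')) l.2 m.2 l1 l2⟩, l1, l2⟩
    · exact (h.uq a b c d).imp Subtype.ext Subtype.ext
    · obtain ⟨x, -, -, h1, h3, -⟩ := ex l.1 l.2
      exact ⟨⟨x, h3⟩, h1⟩
    · obtain ⟨l, h1⟩ := Set.nonempty_of_ncard_ne_zero (s := {x | ¬ I p.1 x ∧ r • x = x})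
        (by rw [h.dual.inv_off r0 p.2 (hr' p.1)]; omega)
      exact ⟨⟨l, h1.2⟩, h1.1⟩
    · obtain ⟨x, y, xy, x1, x2, y1, y2⟩ := ex l hl
      obtain ⟨k, k1, k2⟩ := h.exL x y
      have k3 := h.fixL xy x2 y2 k1 k2
      obtain ⟨z, -, -, z1, z2, -⟩ := ex k k3
      obtain ⟨j, j1, j2⟩ := h.exL x z
      have j3 := h.fixL (fun e : x = z => z1 (e ▸ k1)) x2 z2 j1 j2
      have jk : j ≠ k := fun e => z1 (e ▸ j2)
      obtain ⟨w, w1, w2, w3⟩ : ∃ w, ¬ I w k ∧ r • w = w ∧ ¬ I w j := by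
        by_contra hc
        push Not at hc
        have e : {w | ¬ I w k ∧ r • w = w} = {w | I w j ∧ w ≠ x} := Set.eq_of_subset_of_ncard_le
          (fun w hw => ⟨hc w hw.1 hw.2, fun e => hw.1 (e ▸ k1)⟩) (by rw [h.inv_off r0 k3 (hr k), h.on_diff j1])
        exact hr j fun w hw => by
          by_cases e' : w = x
          exacts [e' ▸ x2, (e.ge ⟨hw, e'⟩).2]
      exact ⟨⟨w, w2⟩, ⟨x, x2⟩, ⟨y, y2⟩, ⟨l, hl⟩, ⟨k, k3⟩, ⟨j, j3⟩, w1, w3, x1, k1, j1, y1, k2,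
        fun e => jk (h.uqL xy j1 e k1 k2)⟩
  refine ⟨m, hm, ?_⟩
  rw [← hm.off ⟨l, hl⟩, ← h.inv_off r0 hl (hr l)]
  symm
  exact Set.ncard_congr (fun p _ => p.1) (fun p hp => ⟨hp, p.2⟩) (fun _ _ _ _ e => Subtype.ext e)
    fun p hp => ⟨⟨p, hp.2⟩, hp.1, rfl⟩

theorem odd_ppow (h2 : Tr2 G P) (hn : Odd n) : ∃ p k : ℕ, p.Prime ∧ n = p ^ k := by
  have := h.finG
  have := h.finP
  have := h.finL
  obtain ⟨H, ⟨⟨k, hk⟩, m, j, hm, j0, hj⟩, hmax⟩ := Set.Finite.exists_maximal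
    (s := {H : Subgroup G | (∃ k, Nat.card H = 2 ^ k) ∧ ∃ m j, PP (IS I (Fx H) (Fx H)) m ∧ j ≠ 0 ∧ n = m ^ j})
    (Set.toFinite _) ⟨⊥, ⟨0, by simp⟩, n, 1, h.toPP.congr
      (Equiv.subtypeUnivEquiv fun p g hg => by rw [Subgroup.mem_bot.1 hg, one_smul])
      (Equiv.subtypeUnivEquiv fun p g hg => by rw [Subgroup.mem_bot.1 hg, one_smul]) fun _ _ => Iff.rfl,
      one_ne_zero, (pow_one n).symm⟩
  have step : ∀ K : Subgroup G, H ≤ K → 2 ^ (k + 1) ∣ Nat.card K → ∃ s ∈ K, ∃ r : Col (IS I (Fx H) (Fx H)),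
      (∀ p : Subtype (Fx (X := P) H), (r • p).1 = s • p.1) ∧ (∀ l : Subtype (Fx (X := L) H), (r • l).1 = s • l.1) ∧
      r * r = 1 ∧ r ≠ 1 ∧ (∃ a, r ∈ Ax (IS I (Fx H) (Fx H)) a) ∧
      ∃ Q : Subgroup G, Nat.card Q = 2 ^ (k + 1) ∧ ∀ p : P, Fx H p → s • p = p → Fx Q p := by
    intro K hK hd
    obtain ⟨Q, q1, q2, q3⟩ := exists_up hK hk hd
    have q4 : Nat.card Q = Nat.card H * 2 := by rw [q3, hk, pow_succ]
    have ne : ¬ Q ≤ H := fun e => by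
      have := Subgroup.card_le_of_le e
      have : 0 < Nat.card H := Nat.card_pos
      omega
    obtain ⟨s, s1, s2⟩ := SetLike.not_le_iff_exists.1 ne
    have a1 : ∀ g ∈ H, s⁻¹ * g * s ∈ H := fun g hg => by
      rw [idx2 q2 q4 (mul_mem (inv_mem s1) (q2 hg)) s1, idx2 q2 q4 (inv_mem s1) (q2 hg)]; simp [s2, hg]
    have a2 : s * s ∈ H := by rw [idx2 q2 q4 s1 s1]
    let r : Col (IS I (Fx H) (Fx H)) := ⟨(resPerm a1 a2, resPerm a1 a2), fun p l => h.inv s p.1 l.1⟩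
    have r0 : r * r = 1 := hm.col.faithP fun p => Subtype.ext (by
      change s • s • p.1 = p.1
      rw [← mul_smul]; exact p.2 _ a2)
    have bad : ∀ m' j', PP (IS I (Fx Q) (Fx Q)) m' → j' ≠ 0 → n ≠ m' ^ j' := fun m' j' b1 b2 b3 =>
      ne (hmax ⟨⟨_, q3⟩, m', j', b1, b2, b3⟩ q2)
    refine ⟨s, q1 s1, r, fun _ => rfl, fun _ => rfl, r0, fun e => ?_, by_contra fun e => ?_, Q, q3,
      fun p a b => (fx_idx2 q2 q4 s1 s2 p).2 ⟨a, b⟩⟩
    · refine bad m j (hm.congr (Equiv.subtypeEquivRight fun p => (fx_idx2 q2 q4 s1 s2 p).trans ⟨And.left, fun hp => ⟨hp, ?_⟩⟩)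
        (Equiv.subtypeEquivRight fun p => (fx_idx2 q2 q4 s1 s2 p).trans ⟨And.left, fun hp => ⟨hp, ?_⟩⟩) fun _ _ => Iff.rfl) j0 hj
      · exact congrArg (fun r : Col (IS I (Fx H) (Fx H)) => (r • (⟨p, hp⟩ : Subtype (Fx (X := P) H))).1) e
      · exact congrArg (fun r : Col (IS I (Fx H) (Fx H)) => (r • (⟨p, hp⟩ : Subtype (Fx (X := L) H))).1) e
    · push Not at e
      obtain ⟨m', b1, b2⟩ := hm.col.baer r0 e
      refine bad m' (2 * j) (b1.congr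
        ⟨fun p => ⟨⟨p.1, ((fx_idx2 q2 q4 s1 s2 p.1).1 p.2).1⟩, Subtype.ext ((fx_idx2 q2 q4 s1 s2 p.1).1 p.2).2⟩,
          fun p => ⟨p.1.1, (fx_idx2 q2 q4 s1 s2 _).2 ⟨p.1.2, congrArg Subtype.val p.2⟩⟩, fun _ => rfl, fun _ => rfl⟩
        ⟨fun p => ⟨⟨p.1, ((fx_idx2 q2 q4 s1 s2 p.1).1 p.2).1⟩, Subtype.ext ((fx_idx2 q2 q4 s1 s2 p.1).1 p.2).2⟩,
          fun p => ⟨p.1.1, (fx_idx2 q2 q4 s1 s2 _).2 ⟨p.1.2, congrArg Subtype.val p.2⟩⟩, fun _ => rfl, fun _ => rfl⟩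
        fun _ _ => Iff.rfl) (by omega) (by rw [pow_mul, ← b2, hj])
  have N0 : 0 < Nat.card P * Nat.card P - Nat.card P := by
    obtain ⟨p, q, e⟩ := h.two_pts
    exact Nat.pos_of_mul_pos_right ((h2.card_stab e).symm ▸ Nat.card_pos)
  obtain ⟨A, B, AB, hd⟩ : ∃ A B : P, A ≠ B ∧ 2 ^ (k + 1) ∣ Nat.card (stabilizer G A ⊓ stabilizer G B : Subgroup G) := by
    obtain ⟨A, B, e⟩ := hm.col.two_pts
    obtain ⟨s, -, r, r1, -, -, -, ⟨a, ha⟩, Q, q1, q2⟩ := step ⊤ le_top (by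
      rw [Subgroup.card_top, ← h2.card_stab (fun e' => e (Subtype.ext e')), pow_succ', ← hk]
      refine Nat.mul_dvd_mul ?_ (Subgroup.card_dvd_of_le fun g hg => ⟨A.2 g hg, B.2 g hg⟩)
      rw [← Nat.mul_sub_one]
      exact (Nat.even_mul_pred_self _).two_dvd)
    obtain ⟨C, c1, -⟩ := hm.ex3 a A A
    obtain ⟨D, d1, d2, -⟩ := hm.ex3 a C C
    refine ⟨D.1, C.1, fun e => d2 (Subtype.ext e), q1 ▸ Subgroup.card_dvd_of_le fun g hg => ⟨?_, ?_⟩⟩
    · exact q2 _ D.2 (by rw [← r1, ha D d1]) g hg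
    · exact q2 _ C.2 (by rw [← r1, ha C c1]) g hg
  obtain ⟨p, i, hp, hi⟩ := hm.col.wagner (hn.of_dvd_nat (hj ▸ dvd_pow_self m j0)) (fun C D e => by
    obtain ⟨s, hs, r, r1, -, r2, r3, ⟨a, ha⟩, -⟩ := step (stabilizer G C.1 ⊓ stabilizer G D.1)
      (fun g hg => ⟨C.2 g hg, D.2 g hg⟩) (by
        rwa [Nat.eq_of_mul_eq_mul_left N0 ((h2.card_stab (fun e' => e (Subtype.ext e'))).trans
          (h2.card_stab AB).symm)])
    exact ⟨r, a, r2, r3, ha, Subtype.ext ((r1 C).trans hs.1), Subtype.ext ((r1 D).trans hs.2)⟩) fun C D e => by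
    obtain ⟨s, hs, r, -, r1, r2, r3, ⟨a, ha⟩, -⟩ := step (stabilizer G C.1 ⊓ stabilizer G D.1)
      (fun g hg => ⟨C.2 g hg, D.2 g hg⟩) (by
        have := (h.tr2L h2).card_stab (fun e' => e (Subtype.ext e'))
        rw [h.cardL, ← h.cardP] at this
        rwa [Nat.eq_of_mul_eq_mul_left N0 (this.trans (h2.card_stab AB).symm)])
    exact ⟨r, a, r2, r3, ha, Subtype.ext ((r1 C).trans hs.1), Subtype.ext ((r1 D).trans hs.2)⟩
  exact ⟨p, i * j, hp, by rw [pow_mul, ← hi, hj]⟩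

theorem moufang (h2 : Tr2 G P) (a : L) : n ^ 2 ≤ Nat.card (h.T a) := by
  rcases Nat.even_or_odd n with hn | hn
  · obtain ⟨g, b, g0, g1, gb⟩ := h.even_persp h2 hn
    exact h.stepA_inv h2 g0 g1 gb a
  · obtain ⟨p, k, hp, hk⟩ := h.odd_ppow h2 hn
    obtain ⟨g, b, g1, gb⟩ := h.ppow_persp h2 hp hk
    exact h.stepA_el h2 g1 gb a

end PA

end Cfsg.Agent.Plane
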