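import Cfsg.Agent.Plane.Count

/-! Existence of perspectivities in 2-transitive collineation groups for even order (`PA.even_persp`) and prime
power order (`PA.ppow_persp`). -/

set_option autoImplicit false

namespace Cfsg.Agent.Plane

open MulAction

theorem exists_central {G : Type*} [Group G] [Finite G] {U : Subgroup G} {p : ℕ} (hp : p.Prime) (hU : IsPGroup p U)
    (h0 : U ≠ ⊥) : ∃ z ∈ U, z ^ p = 1 ∧ z ≠ 1 ∧ ∀ u ∈ U, u * z = z * u := by
  haveI := Fact.mk hp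
  haveI := (Subgroup.nontrivial_iff_ne_bot U).2 h0
  have := hU.center_nontrivial
  obtain ⟨z, hz⟩ := exists_prime_orderOf_dvd_card' (G := Subgroup.center U) p
    ((hU.to_subgroup _).card_eq_or_dvd.resolve_left Finite.one_lt_card.ne')
  refine ⟨z.1.1, z.1.2, ?_, fun e => hp.one_lt.ne' ?_, fun u hu => ?_⟩
  · have := pow_orderOf_eq_one z
    rw [hz] at this
    exact congrArg (fun x : Subgroup.center U => x.1.1) this
  · rw [← hz, orderOf_eq_one_iff]; exact Subtype.ext (Subtype.ext e)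
  · exact congrArg Subtype.val (Subgroup.mem_center_iff.1 z.2 ⟨u, hu⟩)

theorem ne_bot_of_orb {G X : Type*} [Group G] [MulAction G X] {U : Subgroup G} {x : X} {d : ℕ} (hd : 1 < d)
    (h : d ∣ (orb U x).ncard) : U ≠ ⊥ := by
  rintro rfl
  have := orb_card (⊥ : Subgroup G) x
  rw [Subgroup.card_bot] at this
  rw [Nat.eq_one_of_mul_eq_one_right this, Nat.dvd_one] at h
  omega

variable {P L : Type*} {I : P → L → Prop} {n : ℕ} {G : Type*} [Group G] [MulAction G P] [MulAction G L]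

namespace PA
variable (h : PA G I n)
include h

theorem even_persp (h2 : Tr2 G P) (hn : Even n) : ∃ (g : G) (a : L), g * g = 1 ∧ g ≠ 1 ∧ g ∈ Ax I a := by
  have := h.finG
  have := h.finP
  have h3 := h.two_le
  obtain ⟨l⟩ := h.neL
  obtain ⟨U, hU, pU, r, hr, hc⟩ := exists_syl (stabilizer G l) Nat.prime_two
  obtain ⟨j, m, hm, e⟩ := Nat.exists_eq_two_pow_mul_odd (n := n) (by omega)
  have j0 : j ≠ 0 := by
    rintro rfl
    rw [pow_zero, one_mul] at e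
    exact Nat.not_even_iff_odd.2 hm (e ▸ hn)
  have key : ∀ x, ¬ I x l → 2 ^ (j * 2) ∣ (orb U x).ncard := fun x hx => pow_dvd_orb hU hr hc x (by
    have : orb (stabilizer G l) x = {p | ¬ I p l} := Set.ext fun y =>
      ⟨by rintro ⟨g, hg, rfl⟩ e; exact hx ((h.invL hg x).1 e), fun hy =>
        let ⟨g, g1, g2⟩ := h.anti h2 hx hy; ⟨g, g2, g1⟩⟩
    rw [this, h.off, e, mul_pow, ← pow_mul]; exact dvd_mul_right _ _)
  obtain ⟨x, hx⟩ := h.exOff l
  obtain ⟨z, z1, z2, z3, z4⟩ := exists_central Nat.prime_two pU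
    (ne_bot_of_orb (Nat.one_lt_two_pow (by omega)) (key x hx))
  rw [pow_two] at z2
  refine ⟨z, l, z2, z3, by_contra fun ha => ?_⟩
  have h4 := dvd_of_orb U (2 ^ (j * 2)) _ {x | ¬ I x l ∧ z • x = x} rfl (fun g hg x hx =>
    ⟨fun e => hx.1 ((h.invL (hU hg) x).1 e), by rw [← mul_smul, ← z4 g hg, mul_smul, hx.2]⟩) fun x hx => key x hx.1
  rw [h.inv_off z2 (hU z1) ha, e, mul_two, pow_add, Nat.mul_dvd_mul_iff_left (by positivity)] at h4
  exact Nat.not_even_iff_odd.2 hm (even_iff_two_dvd.2 ((dvd_pow_self 2 j0).trans h4))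

theorem tr_thru (h2 : Tr2 G P) {c y : P} {l m m' : L} (e : c ≠ y) (hc : I c l) (hy : I y l) (m1 : I y m)
    (m2 : m ≠ l) (m3 : I y m') (m4 : m' ≠ l) : ∃ g : G, g • c = c ∧ g • y = y ∧ g • m = m' := by
  have := h.finG
  have := h.finL
  have o1 : orb (stabilizer G c) l = {k | I c k} := Set.ext fun k =>
    ⟨by rintro ⟨g, hg, rfl⟩; exact h.smP hc hg, fun hk => let ⟨g, g1, g2⟩ := h.flag h2 hc hk; ⟨g, g1, g2⟩⟩
  have h1 := orb_card (stabilizer G c) l
  rw [o1, h.thru, mul_comm] at h1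
  have cm : ¬ I c m := fun e' => m2 (h.uqL e e' m1 hc hy)
  have o2 : orb (stabilizer G c) m = {k | ¬ I c k} := Set.ext fun k =>
    ⟨by rintro ⟨g, hg, rfl⟩ e; exact cm ((h.dual.invL hg m).1 e), fun hk =>
      let ⟨g, g1, g2⟩ := h.anti h2 cm hk; ⟨g, g1, g2⟩⟩
  have h3 := pow_dvd_orb (j := 2) (p := n) inf_le_left h1.symm (by simp) m (by rw [o2, h.offL])
  rw [← h.offL c] at h3
  have o3 := orb_eq (U := stabilizer G c ⊓ stabilizer G l) (S := {k | ¬ I c k}) (x := m) (fun g hg e => cm ((h.dual.invL hg.1 m).1 e)) h3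
  obtain ⟨g, ⟨g1, g2⟩, g3⟩ : m' ∈ orb (stabilizer G c ⊓ stabilizer G l) m := by
    rw [o3]; exact fun e' => m4 (h.uqL e e' m3 hc hy)
  exact ⟨g, g1, h.uqP m4 (g3 ▸ h.sm g m1) (h.smL hy g2) m3 hy, g3⟩

theorem ppow_persp (h2 : Tr2 G P) {p s : ℕ} (hp : p.Prime) (hn : n = p ^ s) :
    ∃ (g : G) (a : L), g ≠ 1 ∧ g ∈ h.T a := by
  have := h.finG
  have := h.finP
  have := h.finL
  have h3 := h.two_le
  obtain ⟨c, y, cy⟩ := h.two_pts
  obtain ⟨l, hc, hy⟩ := h.exL c y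
  obtain ⟨U, hU, pU, r, hr, hco⟩ := exists_syl (stabilizer G c ⊓ stabilizer G y) hp
  have Ul : ∀ u ∈ U, u • l = l := fun u hu => h.fixL cy (hU hu).1 (hU hu).2 hc hy
  have key : ∀ d m, I d l → (∀ u ∈ U, u • d = d) → I d m → m ≠ l → orb U m = {k | I d k ∧ k ≠ l} := by
    intro d m d1 d2 m1 m2
    obtain ⟨e, e1, e2, e3⟩ : ∃ e, I e l ∧ e ≠ d ∧ ∀ u ∈ U, u • e = e := by
      by_cases e : c = d
      exacts [⟨y, hy, e ▸ cy.symm, fun u hu => (hU hu).2⟩, ⟨c, hc, e, fun u hu => (hU hu).1⟩]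
    have c1 : Nat.card (stabilizer G e ⊓ stabilizer G d : Subgroup G) = Nat.card U * r := by
      rw [← hr]
      refine Nat.eq_of_mul_eq_mul_left ?_ ((h2.card_stab e2).trans (h2.card_stab cy).symm)
      exact Nat.pos_of_mul_pos_right ((h2.card_stab e2).symm ▸ Nat.card_pos)
    have inv : ∀ g : G, g • d = d → g • l = l → g • m ∈ {k | I d k ∧ k ≠ l} := fun g g1 g2 =>
      ⟨h.smP m1 g1, fun e => m2 (smul_left_cancel g (e.trans g2.symm))⟩
    have o1 : orb (stabilizer G e ⊓ stabilizer G d) m = {k | I d k ∧ k ≠ l} := Set.ext fun k =>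
      ⟨by rintro ⟨g, hg, rfl⟩; exact inv g hg.2 (h.fixL e2 hg.1 hg.2 e1 d1), fun hk =>
        let ⟨g, g1, g2, g3⟩ := h.tr_thru h2 e2 e1 d1 m1 m2 hk.1 hk.2; ⟨g, ⟨g1, g2⟩, g3⟩⟩
    refine orb_eq (fun g hg => inv g (d2 g hg) (Ul g hg)) ?_
    rw [h.thru_diff d1, hn]
    exact pow_dvd_orb (K := stabilizer G e ⊓ stabilizer G d) (fun u hu => ⟨e3 u hu, d2 u hu⟩) c1 hco m (by rw [o1, h.thru_diff d1, hn])
  obtain ⟨m₀, m1, m2, -⟩ := h.ex3L y l l
  obtain ⟨w, w1, -, w3, w4⟩ := exists_central hp pU (ne_bot_of_orb (d := n) (x := m₀) (by omega)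
    (by rw [key y m₀ hy (fun u hu => (hU hu).2) m1 m2, h.thru_diff hy]))
  have cen : ∀ d m, I d l → (∀ u ∈ U, u • d = d) → I d m → m ≠ l → w • m = m → w ∈ Ce I d := by
    intro d m d1 d2 m1 m2 m3 k hk
    by_cases e : k = l
    · rw [e]; exact Ul w w1
    obtain ⟨u, hu, rfl⟩ : k ∈ orb U m := by rw [key d m d1 d2 m1 m2]; exact ⟨hk, e⟩
    rw [← mul_smul, ← w4 u hu, mul_smul, m3]
  obtain ⟨d, d1, d2⟩ : ∃ d, I d l ∧ w ∈ Ce I d := by
    by_cases hf : ∃ x, ¬ I x l ∧ w • x = x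
    · obtain ⟨x, x1, x2⟩ := hf
      obtain ⟨m, m1, m2⟩ := h.exL x y
      exact ⟨y, hy, cen y m hy (fun u hu => (hU hu).2) m2 (fun e => x1 (e ▸ m1))
        (h.fixL (fun e : x = y => x1 (e ▸ hy)) x2 (hU w1).2 m1 m2)⟩
    push Not at hf
    obtain ⟨m, m1, m2⟩ : ∃ m, w • m = m ∧ m ≠ l := by
      by_contra hc'
      push Not at hc'
      have h4 := Set.ncard_le_ncard (show {k : L | w • k = k} ⊆ {l} from hc')
      have h5 := Set.ncard_le_ncard (show {c, y} ⊆ {x : P | w • x = x} by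
        rintro _ (rfl | rfl); exacts [(hU w1).1, (hU w1).2])
      rw [Set.ncard_pair cy, h.fix_card] at h5
      rw [Set.ncard_singleton] at h4
      omega
    obtain ⟨d, d1, d2⟩ := h.exP m l
    refine ⟨d, d2, cen d m d2 (fun u hu => ?_) d1 m2 m1⟩
    by_cases e : u • m = m
    · exact h.fixP m2 e (Ul u hu) d1 d2
    have um : w • u • m = u • m := by rw [← mul_smul, ← w4 u hu, mul_smul, m1]
    obtain ⟨z, z1, z2⟩ := h.exP (u • m) m
    have zl : I z l := by_contra fun zl => hf z zl (h.fixP e um m1 z1 z2)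
    have : z = d := h.uqP m2 z2 zl d1 d2
    exact h.uqP (fun e : u • m = l => m2 (smul_left_cancel u (e.trans (Ul u hu).symm))) (h.sm u d1)
      (h.smL d2 (Ul u hu)) (this ▸ z1) d2
  obtain ⟨a, ha⟩ := h.exists_ax d2
  refine ⟨w, l, w3, ?_, d, d1, d2⟩
  by_contra hl
  have al : a ≠ l := fun e => hl (e ▸ ha)
  have Ua : ∀ u ∈ U, u • a = a := fun u hu =>
    h.ax_uq (by simpa [w4 u hu] using h.ax_conj ha u) ha w3
  obtain ⟨e, e1, e2⟩ := h.exP a l
  obtain ⟨k, k1, k2, k3⟩ := h.ex3L e l a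
  obtain ⟨u, hu, rfl⟩ : k ∈ orb U a := by
    rw [key e a e2 (fun u hu => h.fixP al (Ua u hu) (Ul u hu) e1 e2) e1 al]; exact ⟨k1, k2⟩
  exact k3 (Ua u hu)

end PA

end Cfsg.Agent.Plane
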